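import Cfsg.Agent.H2.KpSpec

/-! Tower KP (S4202), item HALFB: two blocks, degree `4`, `6` or `8`. -/

set_option autoImplicit false
set_option maxHeartbeats 400000
set_option linter.unusedSectionVars false

namespace H15.KP

open Equiv MulAction H2.Ln H2.Kp

theorem card_le_kk (Γ : Type) [Group Γ] [Finite Γ] (h : ∀ a b : Γ, a * b = b * a) :
    Nat.card Γ ≤ kk Γ := by
  refine Nat.card_le_card_of_injective ConjClasses.mk fun a b hab => ?_
  obtain ⟨c, hc⟩ := isConj_iff.1 (ConjClasses.mk_eq_mk_iff_isConj.1 hab)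
  rw [← hc, h c a, mul_inv_cancel_right]

theorem two_orders (K : KB) (Γ : Type) [Group Γ] [Finite Γ] (h24 : Nat.card Γ ∣ 24)
    (h5 : kk Γ = 5) : ∃ y y' : Γ, y ≠ 1 ∧ y' ≠ 1 ∧ orderOf y ≠ orderOf y' := by
  by_contra hc
  push Not at hc
  have h1 := K.card Γ
  rw [h5] at h1
  have h2 : Nat.card Γ ≤ 24 := Nat.le_of_dvd (by norm_num) h24
  haveI : Fact (Nat.Prime 2) := ⟨Nat.prime_two⟩
  haveI : Fact (Nat.Prime 3) := ⟨Nat.prime_three⟩
  have e2 : 2 ∣ Nat.card Γ := by
    generalize Nat.card Γ = m at *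
    interval_cases m <;> omega
  obtain ⟨y, hy⟩ := exists_prime_orderOf_dvd_card' 2 e2
  have hy1 : y ≠ 1 := fun h => by rw [h, orderOf_one] at hy; omega
  have o2 : ∀ a : Γ, a ≠ 1 → orderOf a = 2 := fun a ha => (hc a y ha hy1).trans hy
  have n3 : ¬ 3 ∣ Nat.card Γ := fun h => by
    obtain ⟨z, hz⟩ := exists_prime_orderOf_dvd_card' 3 h
    have := o2 z fun h => by rw [h, orderOf_one] at hz; omega
    omega
  have sq : ∀ a : Γ, a * a = 1 := fun a => by
    by_cases ha : a = 1
    · rw [ha, one_mul]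
    · rw [← pow_two, ← o2 a ha, pow_orderOf_eq_one]
  have iv : ∀ a : Γ, a⁻¹ = a := fun a => inv_eq_of_mul_eq_one_right (sq a)
  have h3 := card_le_kk Γ fun a b => by rw [← iv (a * b), mul_inv_rev, iv, iv]
  rw [h5] at h3
  omega

theorem jobHalfB : KB → GA → Two → Half0 → HalfB := by
  intro K A T H0 α _ _ M p _ ih hp h3 htr B hB hn h10
  classical
  obtain ⟨H, N, X, Y, hH, hN, hk, hX, ⟨eY⟩, -, -, hc⟩ := H0 α M htr B hB hn
  obtain ⟨v0, v1, v2, v3, v4, v6, v8⟩ := A.val
  have cB : Fintype.card B = B.card := Fintype.card_coe B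
  have cB' : Fintype.card (Bᶜ : Finset α) = B.card := by
    rw [Fintype.card_coe, Finset.card_compl]; omega
  have kX : kc X ≤ gg B.card := cB ▸ ih B X (by omega) fun h => hp (h.trans hX)
  have cN : Nat.card N = Nat.card Y := Nat.card_congr eY.toEquiv
  have kN : kc N ≤ gg B.card := by
    have := ih (Bᶜ : Finset α) Y (by omega) fun h =>
      hp (h.trans (cN ▸ Subgroup.card_subgroup_dvd_card N))
    rw [cB'] at this
    exact (kk_congr eY).le.trans this
  have t0 : kc M ≤ 2 * kc H := by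
    have := T M H ∅ hH (by simp) (by simp)
    simpa using this
  have hb : B.card = 2 ∨ B.card = 3 ∨ B.card = 4 := by omega
  rw [← hn]
  by_cases h0 : N = ⊥
  · have h1 : kc N ≤ 1 := (K.card N).trans (by rw [h0]; simp)
    have h2 : kc H ≤ kc X := hk.trans (by nlinarith)
    rcases hb with e | e | e <;> rw [e] at kX ⊢ <;> norm_num <;> omega
  obtain ⟨⟨y, hy⟩, hy1⟩ := Subgroup.ne_bot_iff_exists_ne_one.1 h0
  have hy1' : y ≠ 1 := fun h => hy1 (Subtype.ext h)
  have t1 : kc M + 3 ≤ 2 * kc H := by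
    have := T M H {y} hH (by simpa using hN hy) (by
      intro a ha b hb g hg
      rw [Finset.mem_singleton] at ha hb
      subst ha hb
      exact ⟨rfl, hc _ hy hy1' g (by rw [hg]; exact hy)⟩)
    simpa using this
  have hm := hk.trans (Nat.mul_le_mul kX kN)
  rcases hb with e | e | e
  · rw [e] at hm ⊢; norm_num; rw [v2] at hm; omega
  · rw [e] at hm ⊢; norm_num; rw [v3] at hm; omega
  rw [e] at kX kN hm ⊢
  rw [v4] at kX kN hm
  norm_num
  rcases Nat.lt_or_ge (kc N) 5 with h5 | h5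
  · have := hk.trans (Nat.mul_le_mul kX (Nat.lt_succ_iff.1 h5))
    omega
  have h24 : Nat.card N ∣ 24 := by
    have := Subgroup.card_subgroup_dvd_card Y
    rw [Nat.card_perm, Nat.card_eq_fintype_card (α := (Bᶜ : Finset α)), cB', e] at this
    rwa [cN]
  obtain ⟨a, b, ha, hb, hab⟩ := two_orders K N h24 (le_antisymm kN h5)
  have ha' : (a : M) ≠ 1 := fun h => ha (Subtype.ext h)
  have hb' : (b : M) ≠ 1 := fun h => hb (Subtype.ext h)
  have hab' : orderOf (a : M) ≠ orderOf (b : M) := by simpa using hab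
  have hne : (a : M) ≠ b := fun h => hab' (by rw [h])
  have oc : ∀ u v g : M, g * u * g⁻¹ = v → orderOf u = orderOf v := fun u v g h => by
    rw [← h]; exact (MulEquiv.orderOf_eq (MulAut.conj g) u).symm
  have t2 := T M H {(a : M), (b : M)} hH (by
      intro u hu
      rcases Finset.mem_insert.1 hu with rfl | hu
      · exact hN a.2
      · rw [Finset.mem_singleton.1 hu]; exact hN b.2) (by
      intro u hu v hv g hg
      have m : ∀ w ∈ ({(a : M), (b : M)} : Finset M), w = a ∨ w = b := fun w hw => by simpa using hw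
      rcases m u hu with rfl | rfl <;> rcases m v hv with rfl | rfl
      · exact ⟨rfl, hc _ a.2 ha' g (by rw [hg]; exact a.2)⟩
      · exact (hab' (oc _ _ g hg)).elim
      · exact (hab' (oc _ _ g hg).symm).elim
      · exact ⟨rfl, hc _ b.2 hb' g (by rw [hg]; exact b.2)⟩)
  rw [Finset.card_pair hne] at t2
  change kc M + 3 * 2 ≤ _ at t2
  omega

end H15.KP
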