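import Cfsg.Agent.H31.O7A

/-! O7, job Sm: the small case (blueprints/O7.md, chapter A). -/

set_option autoImplicit false
set_option linter.unusedVariables false

namespace H15.O7

open H56 H31.O7 QuadraticMap Module

universe u

section main

variable {K : Type u} [Field K] {V : Type u} [AddCommGroup V] [Module K V] {Q : QuadraticForm K V}
  {Φ : Set V}

theorem cc_of_par {u v : V} (hu : Q u ≠ 0) (hv : Q v ≠ 0) (h : Par K u v) : cc Q u v = 4 := by
  obtain ⟨a, rfl⟩ := h
  have ha : a ≠ 0 := by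
    rintro rfl
    exact hv (by simp)
  rw [cc_smul_right ha, cc_self hu]

theorem cc_par_left {u v : V} (w : V) (hv : Q v ≠ 0) (h : Par K u v) : cc Q w v = cc Q w u := by
  obtain ⟨a, rfl⟩ := h
  have ha : a ≠ 0 := by
    rintro rfl
    exact hv (by simp)
  rw [cc_smul_right ha]

theorem indep3 {u v r : V} (hu : Q u ≠ 0) (hv : Q v ≠ 0) (h4 : cc Q u v ≠ 4)
    (hr : r ∉ Submodule.span K {u, v}) : LinearIndependent K ![u, v, r] := by
  rw [Fintype.linearIndependent_iff]
  intro g hg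
  simp only [Fin.sum_univ_three, Matrix.cons_val_zero, Matrix.cons_val_one,
    Matrix.cons_val_two, Matrix.head_cons, Matrix.tail_cons] at hg
  have h2 : g 2 = 0 := by
    by_contra h2
    apply hr
    rw [Submodule.mem_span_pair]
    refine ⟨-(g 0 / g 2), -(g 1 / g 2), ?_⟩
    have : r = (g 2)⁻¹ • (-(g 0 • u + g 1 • v)) := by
      rw [eq_inv_smul_iff₀ h2]
      exact eq_neg_of_add_eq_zero_right hg
    rw [this]
    match_scalars <;> field_simp
  rw [h2, zero_smul, add_zero] at hg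
  have e1 : polar Q u (g 0 • u + g 1 • v) = 0 := by rw [hg]; simp
  have e2 : polar Q v (g 0 • u + g 1 • v) = 0 := by rw [hg]; simp
  rw [polar_add_right, polar_smul_right, polar_smul_right, polar_self', smul_eq_mul,
    smul_eq_mul] at e1
  rw [polar_add_right, polar_smul_right, polar_smul_right, polar_self', smul_eq_mul,
    smul_eq_mul, polar_comm Q v u] at e2
  have hd : 4 * (Q u * Q v) - polar Q u v ^ 2 ≠ 0 := by
    intro hd
    apply h4
    rw [cc, div_eq_iff (mul_ne_zero hu hv)]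
    linear_combination -hd
  have h0 : g 0 = 0 := by
    have : g 0 * (4 * (Q u * Q v) - polar Q u v ^ 2) = 0 := by
      linear_combination 2 * Q v * e1 - polar Q u v * e2
    exact (mul_eq_zero.1 this).resolve_right hd
  have h1 : g 1 = 0 := by
    have : g 1 * (4 * (Q u * Q v) - polar Q u v ^ 2) = 0 := by
      linear_combination 2 * Q u * e2 - polar Q u v * e1
    exact (mul_eq_zero.1 this).resolve_right hd
  intro i
  fin_cases i
  · exact h0
  · exact h1
  · exact h2

theorem outside [FiniteDimensional K V] (h : RS Q Φ) {u v : V} (hu : u ∈ Φ) :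
    ∃ r ∈ Φ, r ∉ Submodule.span K {u, v} ∧ (polar Q u r ≠ 0 ∨ polar Q v r ≠ 0) := by
  by_contra hc
  push Not at hc
  rcases h.irr' (Submodule.span K {u, v}) (fun r hr => by
    by_cases h1 : r ∈ Submodule.span K {u, v}
    · exact Or.inl h1
    · exact Or.inr (mem_perp_span_pair.2 (hc r hr h1))) with h0 | h0
  · have : u ∈ Submodule.span K ({u, v} : Set V) := Submodule.subset_span (by simp)
    rw [h0, Submodule.mem_bot] at this
    exact h.ne u hu (by simp [this])
  · classical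
    have h1 := finrank_span_finset_le_card (R := K) ({u, v} : Finset V)
    have h2 : ({u, v} : Finset V).card ≤ 2 := Finset.card_le_two
    rw [Set.finrank, Finset.coe_pair, h0, finrank_top, h.dim] at h1
    omega

/-- A root not orthogonal to the plane lies in a connected independent triple. -/
theorem triple [FiniteDimensional K V] (h : RS Q Φ) {u v w : V} (hu : u ∈ Φ) (hw : w ∈ Φ)
    (hc : polar Q u w ≠ 0 ∨ polar Q v w ≠ 0) :
    ∃ r ∈ Φ, r ∉ Submodule.span K {u, v} ∧ (polar Q u r ≠ 0 ∨ polar Q v r ≠ 0) ∧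
      In3 (K := K) Φ u v r w := by
  by_cases h1 : w ∈ Submodule.span K {u, v}
  · obtain ⟨r, hr, h2, h3⟩ := outside (v := v) h hu
    exact ⟨r, hr, h2, h3, hw, Submodule.span_mono (by
      intro x hx
      simp only [Set.mem_insert_iff, Set.mem_singleton_iff] at hx ⊢
      tauto) h1⟩
  · exact ⟨w, hw, h1, hc, hw, Submodule.subset_span (by simp)⟩

theorem in3_1 {u v r : V} (hu : u ∈ Φ) : In3 (K := K) Φ u v r u :=
  ⟨hu, Submodule.subset_span (by simp)⟩

theorem in3_2 {u v r : V} (hv : v ∈ Φ) : In3 (K := K) Φ u v r v :=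
  ⟨hv, Submodule.subset_span (by simp)⟩

/-- The hypotheses of the small case. -/
structure Sm (Q : QuadraticForm K V) (Φ : Set V) : Prop where
  rs : RS Q Φ
  l3 : List3 Q Φ
  deg : Deg Q Φ
  line : Line Q Φ
  nl : ∀ k, ¬ Lie Q Φ k

theorem Sm.a (H : Sm Q Φ) {u v r : V} (hu : u ∈ Φ) (hv : v ∈ Φ) (hr : r ∈ Φ)
    (hi : LinearIndependent K ![u, v, r]) (hd : dt Q u v r = 0) (h0 : cc Q u v ≠ 0)
    (h4 : cc Q u v ≠ 4) : (3 : K) = 0 ∧ cc Q u v ^ 3 = cc Q u v := by
  obtain ⟨f, f0, f1, f2, hf⟩ := H.deg u hu v hv r hr hi hd h0 h4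
  have h1 : u + f ∈ Φ := by simpa using hf 1 (one_mem _)
  rcases H.line u hu f f0 f1 f2 h1 with ⟨k, hk, -⟩ | ⟨h3, h⟩
  · exact absurd hk (H.nl k)
  · exact ⟨h3, h _ (hf _ (Subfield.subset_closure (Or.inl ⟨v, in3_2 hv, rfl⟩)))⟩

theorem Sm.b (H : Sm Q Φ) {u v : V} (hu : u ∈ Φ) (hv : v ∈ Φ) (h4 : cc Q u v = 4)
    (hp : ¬ Par K u v) : (3 : K) = 0 := by
  have hu0 := H.rs.ne u hu
  have hv0 := H.rs.ne v hv
  have h2 := H.rs.two
  have h40 : (4 : K) ≠ 0 := by
    have : (4 : K) = 2 * 2 := by norm_num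
    rw [this]; exact mul_ne_zero h2 h2
  have hp0 : polar Q u v ≠ 0 := fun h0 => h40 (h4.symm.trans ((cc_eq_zero hu0 hv0).2 h0))
  rw [cc, div_eq_iff (mul_ne_zero hu0 hv0)] at h4
  set a : K := 2 * Q u / polar Q u v with ha
  have ha0 : a ≠ 0 := div_ne_zero (mul_ne_zero h2 hu0) hp0
  have e1 : a * polar Q u v = 2 * Q u := by rw [ha]; field_simp
  have e2 : a * a * Q v = Q u := by
    apply mul_left_cancel₀ (mul_ne_zero h40 hu0)
    linear_combination (-a * a) * h4 + (a * polar Q u v + 2 * Q u) * e1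
  have f2 : polar Q u (a • v - u) = 0 := by
    rw [polar_sub_right, polar_smul_right, polar_self', smul_eq_mul, e1, sub_self]
  have f1 : Q (a • v - u) = 0 := by
    have : polar Q u (a • v - u) = Q (u + (a • v - u)) - Q u - Q (a • v - u) := rfl
    rw [f2, add_sub_cancel, Q_smul, e2] at this
    linear_combination this
  have f0 : a • v - u ≠ 0 := by
    intro f0
    apply hp
    refine ⟨a⁻¹, ?_⟩
    rw [eq_inv_smul_iff₀ ha0]
    exact sub_eq_zero.1 f0
  rcases H.line u hu _ f0 f1 f2 (by rw [add_sub_cancel]; exact H.rs.smul hv ha0) with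
    ⟨k, hk, -⟩ | ⟨h3, -⟩
  · exact absurd hk (H.nl k)
  · exact h3

theorem Sm.c (H : Sm Q Φ) {u v r : V} (hu : u ∈ Φ) (hv : v ∈ Φ) (hr : r ∈ Φ)
    (h0 : cc Q u v ≠ 0) (h4 : cc Q u v ≠ 4) (ho : r ∉ Submodule.span K {u, v})
    (hc : polar Q u r ≠ 0 ∨ polar Q v r ≠ 0) :
    ((3 : K) = 0 ∧ cc Q u v ^ 3 = cc Q u v) ∨ TyB Q (In3 (K := K) Φ u v r) ∨
      TyH Q (In3 (K := K) Φ u v r) := by
  have hu0 := H.rs.ne u hu
  have hv0 := H.rs.ne v hv
  by_cases hd : dt Q u v r = 0
  · exact Or.inl (H.a hu hv hr (indep3 hu0 hv0 h4 ho) hd h0 h4)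
  · rcases H.l3 u hu v hv r hr hd (fun h => h0 ((cc_eq_zero hu0 hv0).2 h)) hc with
      ⟨k, hk, -⟩ | h
    · exact absurd hk (H.nl k)
    · exact Or.inr h

theorem Sm.vals [FiniteDimensional K V] (H : Sm Q Φ) {u v : V} (hu : u ∈ Φ) (hv : v ∈ Φ) :
    cc Q u v = 0 ∨ cc Q u v = 1 ∨ cc Q u v = 2 ∨ Par K u v ∨ Gold (cc Q u v) := by
  by_cases h0 : cc Q u v = 0
  · exact Or.inl h0
  by_cases h4 : cc Q u v = 4
  · by_cases hp : Par K u v
    · tauto
    · have := H.b hu hv h4 hp
      exact Or.inr (Or.inl (by linear_combination h4 + this))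
  obtain ⟨r, hr, ho, hc⟩ := outside (v := v) H.rs hu
  rcases H.c hu hv hr h0 h4 ho hc with ⟨h3, h⟩ | h | h
  · have : cc Q u v * ((cc Q u v - 1) * (cc Q u v - 2)) = 0 := by
      linear_combination h + (cc Q u v - cc Q u v ^ 2) * h3
    rcases mul_eq_zero.1 ((mul_eq_zero.1 this).resolve_left h0) with h | h
    · exact Or.inr (Or.inl (sub_eq_zero.1 h))
    · exact Or.inr (Or.inr (Or.inl (sub_eq_zero.1 h)))
  · have := h.1 u v (in3_1 hu) (in3_2 hv)
    tauto
  · have := h.2 u v (in3_1 hu) (in3_2 hv)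
    tauto

theorem gold_ne0 {c : K} (h : Gold c) : c ≠ 0 := by
  rintro rfl
  simp [Gold] at h

theorem gold_ne1 {c : K} (h : Gold c) : c ≠ 1 := by
  rintro rfl
  exact one_ne_zero (α := K) (by unfold Gold at h; linear_combination -h)

theorem gold_ne2 {c : K} (h : Gold c) : c ≠ 2 := by
  rintro rfl
  exact one_ne_zero (α := K) (by unfold Gold at h; linear_combination -h)

theorem gold_ne4 (h5 : (5 : K) ≠ 0) {c : K} (h : Gold c) : c ≠ 4 := by
  rintro rfl
  exact h5 (by unfold Gold at h; linear_combination h)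

theorem gold_cube (h2 : (2 : K) ≠ 0) {c : K} (h : Gold c) : ¬ ((3 : K) = 0 ∧ c ^ 3 = c) := by
  rintro ⟨h3, hc⟩
  have : 2 * c = 0 := by
    unfold Gold at h
    linear_combination c * h - hc + c ^ 2 * h3
  exact gold_ne0 h ((mul_eq_zero.1 this).resolve_left h2)

theorem Sm.tyH (H : Sm Q Φ) {u v r : V} (hu : u ∈ Φ) (hv : v ∈ Φ) (hr : r ∈ Φ)
    (hg : Gold (cc Q u v)) (h4 : cc Q u v ≠ 4) (ho : r ∉ Submodule.span K {u, v})
    (hc : polar Q u r ≠ 0 ∨ polar Q v r ≠ 0) : TyH Q (In3 (K := K) Φ u v r) := by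
  rcases H.c hu hv hr (gold_ne0 hg) h4 ho hc with h | h | h
  · exact absurd h (gold_cube H.rs.two hg)
  · rcases h.1 u v (in3_1 hu) (in3_2 hv) with h | h | h | h
    · exact absurd h (gold_ne0 hg)
    · exact absurd h (gold_ne1 hg)
    · exact absurd h (gold_ne2 hg)
    · exact absurd (cc_of_par (H.rs.ne u hu) (H.rs.ne v hv) h) h4
  · exact h

theorem Sm.five [FiniteDimensional K V] (H : Sm Q Φ) {u v : V} (hu : u ∈ Φ) (hv : v ∈ Φ)
    (hg : Gold (cc Q u v)) (hp : ¬ Par K u v) : (5 : K) ≠ 0 := by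
  have h4 : cc Q u v ≠ 4 := by
    intro h4
    have h3 := H.b hu hv h4 hp
    rw [h4] at hg
    unfold Gold at hg
    exact H.rs.two (by linear_combination hg - h3)
  obtain ⟨r, hr, ho, hc⟩ := outside (v := v) H.rs hu
  exact (H.tyH hu hv hr hg h4 ho hc).1

theorem Sm.valsH [FiniteDimensional K V] (H : Sm Q Φ) (h5 : (5 : K) ≠ 0) {u v w : V}
    (hu : u ∈ Φ) (hv : v ∈ Φ) (hw : w ∈ Φ) (hg : Gold (cc Q u v)) :
    cc Q u w = 0 ∨ cc Q u w = 1 ∨ Gold (cc Q u w) ∨ Par K u w := by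
  by_cases h0 : polar Q u w = 0
  · exact Or.inl ((cc_eq_zero (H.rs.ne u hu) (H.rs.ne w hw)).2 h0)
  obtain ⟨r, hr, ho, hc, hi⟩ := triple (v := v) H.rs hu hw (Or.inl h0)
  exact (H.tyH hu hv hr hg (gold_ne4 h5 hg) ho hc).2 u w (in3_1 hu) hi

end main

theorem Sm.no_gold (hSH : JobSH.{u}) {K : Type u} [Field K] {V : Type u} [AddCommGroup V]
    [Module K V] [FiniteDimensional K V] {Q : QuadraticForm K V} {Φ : Set V} (H : Sm Q Φ)
    {u v : V} (hu : u ∈ Φ) (hv : v ∈ Φ) (hg : Gold (cc Q u v)) : Par K u v := by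
  by_contra hp
  have h5 := H.five hu hv hg hp
  have hu0 := H.rs.ne u hu
  have hv0 := H.rs.ne v hv
  let Ψ : Set V := {x | x ∈ Φ ∧ Q x = Q u ∧ ∃ x' ∈ Φ, Gold (cc Q x x')}
  have hsub : Ψ ⊆ Φ := fun x hx => hx.1
  have hinv : Inv Q Φ Ψ := by
    rintro w hw x ⟨h1, h2, x', h3, h4⟩
    exact ⟨H.rs.inv w hw x h1, by rw [O.map_Q, h2], refl Q w x', H.rs.inv w hw x' h3,
      by rwa [cc_map]⟩
  have huΨ : u ∈ Ψ := ⟨hu, rfl, v, hv, hg⟩
  have hCl : Cl Q Ψ (Q u) := ⟨H.rs.two, H.rs.nd, H.rs.dim, hu0, fun x hx => hx.2.1,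
    fun w hw x hx => hinv w hw.1 x hx, ⟨u, huΨ⟩, H.rs.irr Ψ hsub ⟨u, huΨ⟩ hinv⟩
  refine hSH K V Q h5 Ψ (Q u) hCl ?_ ?_ u huΨ (refl Q v u) (hinv v hv u huΨ) ?_
  · rintro x ⟨h1, h2, x', h3, h4⟩ y hy
    rcases H.valsH h5 h1 h3 hy.1 h4 with h | h | h | ⟨a, rfl⟩
    · exact Or.inl h
    · exact Or.inr (Or.inl h)
    · exact Or.inr (Or.inr (Or.inl h))
    · have e := hy.2.1
      rw [Q_smul, h2] at e
      have : (a - 1) * (a + 1) = 0 := by
        apply mul_right_cancel₀ hu0
        linear_combination e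
      rcases mul_eq_zero.1 this with h | h
      · rw [sub_eq_zero.1 h]; simp
      · rw [eq_neg_of_add_eq_zero_left h]; simp
  · intro x hx y hy w hw hxy hi hd
    exact gold_cube H.rs.two hxy
      (H.a hx.1 hy.1 hw.1 hi hd (gold_ne0 hxy) (gold_ne4 h5 hxy))
  · have e : cc Q u (refl Q v u) = (2 - cc Q u v) ^ 2 := by
      rw [cc_comm, cc, polar_refl, O.map_Q, polar_self', cc, polar_comm Q v u]
      field_simp
    rw [e]
    unfold Gold at hg ⊢
    linear_combination (cc Q u v ^ 2 - 5 * cc Q u v + 5) * hg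

theorem jobSm : JobSm.{u} := by
  intro hCol hSH K _ _ V _ _ _ Q Φ hRS hL hD hLine hnl
  have H : Sm Q Φ := ⟨hRS, hL, hD, hLine, hnl⟩
  have hval : ∀ x ∈ Φ, ∀ y ∈ Φ, cc Q x y = 0 ∨ cc Q x y = 1 ∨ cc Q x y = 2 ∨ Par K x y := by
    intro x hx y hy
    rcases H.vals hx hy with h | h | h | h | h
    · exact Or.inl h
    · exact Or.inr (Or.inl h)
    · exact Or.inr (Or.inr (Or.inl h))
    · exact Or.inr (Or.inr (Or.inr h))
    · exact Or.inr (Or.inr (Or.inr (H.no_gold hSH hx hy h)))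
  refine hCol K V Q Φ hRS hval ?_
  intro x hx y hy z hz hxy hxz hyz
  have h2 := hRS.two
  have h12 : (1 : K) ≠ 2 := fun h => one_ne_zero (α := K) (by linear_combination -h)
  have h42 : (4 : K) ≠ 2 := fun h => h2 (by linear_combination h)
  have hx0 := hRS.ne x hx
  have hy0 := hRS.ne y hy
  have hz0 := hRS.ne z hz
  by_cases h3 : (3 : K) = 0
  · have hv : ∀ a ∈ Φ, ∀ b ∈ Φ, cc Q a b = 0 ∨ cc Q a b = 1 ∨ cc Q a b = 2 := by
      intro a ha b hb
      rcases hval a ha b hb with h | h | h | h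
      · exact Or.inl h
      · exact Or.inr (Or.inl h)
      · exact Or.inr (Or.inr h)
      · have := cc_of_par (hRS.ne a ha) (hRS.ne b hb) h
        exact Or.inr (Or.inl (by linear_combination this + h3))
    have e1 := cc_refl hx0 hy0 hz0
    have e2 := tau_sq (Q := Q) x y z
    have key : cc Q x z ≠ cc Q y z := by
      intro he
      have ha : cc Q x z ^ 2 = 1 := by
        rcases (hv x hx z hz).resolve_left hxz with h | h <;> rw [h]
        · norm_num
        · linear_combination h3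
      rw [hxy, ← he] at e1 e2
      have e3 : cc Q (refl Q x y) z ^ 2 = 2 := by
        rw [e1]
        linear_combination 4 * e2 + 8 * ha +
          (2 + 3 * cc Q x z ^ 2 - 4 * cc Q x z * tau Q x y z) * h3
      rcases hv _ (hRS.inv x hx y hy) z hz with h | h | h <;> rw [h] at e3
      · exact h2 (by linear_combination -e3)
      · exact h12 (by linear_combination e3)
      · exact h2 (by linear_combination e3)
    rcases (hv x hx z hz).resolve_left hxz with h | h <;>
      rcases (hv y hy z hz).resolve_left hyz with h' | h' <;> rw [h, h'] at key ⊢ <;>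
      simp_all
  · have h0 : cc Q x y ≠ 0 := by rw [hxy]; exact h2
    have h4 : cc Q x y ≠ 4 := by rw [hxy]; exact h42.symm
    obtain ⟨r, hr, ho, hc, hi⟩ := triple (v := y) hRS hx hz
      (Or.inl fun h => hxz ((cc_eq_zero hx0 hz0).2 h))
    rcases H.c hx hy hr h0 h4 ho hc with h | h | h
    · exact absurd h.1 h3
    · obtain ⟨col, hcol⟩ := h.2 h3
      have c1 := (hcol x y (in3_1 hx) (in3_2 hy)).2 hxy
      have c2 := hcol x z (in3_1 hx) hi
      have c3 := hcol y z (in3_2 hy) hi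
      constructor
      · intro ha hb
        have d2 := c2.2 ha
        have d3 := c3.2 hb
        revert c1 d2 d3
        cases col x <;> cases col y <;> cases col z <;> simp
      · intro hb
        rcases (hval y hy z hz).resolve_left hyz with h' | h' | h'
        · rcases (hval x hx z hz).resolve_left hxz with h | h | h
          · exact absurd ((c2.1 h).trans (c3.1 h').symm) c1
          · exact h
          · rw [cc_par_left y hz0 h, cc_comm, hxy] at hb
            exact absurd rfl hb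
        · exact absurd h' hb
        · rw [cc_par_left x hz0 h', hxy]
    · rcases h.2 x y (in3_1 hx) (in3_2 hy) with h | h | h | h
      · exact absurd h h0
      · exact absurd (h.symm.trans hxy) h12
      · exact absurd hxy (gold_ne2 h)
      · exact absurd (cc_of_par hx0 hy0 h) h4

end H15.O7
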