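/- The sporadic groups on the quasithin list have a noncyclic odd Sylow subgroup. -/
import Cfsg.Agent.H97.QTBig
import Cfsg.Agent.H72.Mathieu
import Cfsg.Agent.H74.M24I
import Cfsg.Agent.H80.J4Rep
import Cfsg.Agent.H15.RepJ2
import Cfsg.Agent.H4.Ico5
import Cfsg.Agent.H79.RepHS
import Cfsg.Agent.H79.RuGrp
import Cfsg.Agent.H71.He
set_option maxRecDepth 100000
set_option maxHeartbeats 400000
set_option autoImplicit false
namespace H15.QT
open Cfsg H97.QT

theorem two_of_perm {G Ω : Type*} [Group G] [Finite G] {ρ : G →* Equiv.Perm Ω}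
    (hρ : Function.Injective ρ) {p : ℕ} (hp : p.Prime) (h2 : p ≠ 2) {a b : Equiv.Perm Ω}
    (ha : a ∈ ρ.range) (hb : b ∈ ρ.range) (h3 : a ^ p = 1) (h4 : b ^ p = 1) (h5 : a * b = b * a)
    {i k : Ω} (h6 : a i ≠ i) (h7 : a k = k) (h8 : b k ≠ k) : Two G := by
  obtain ⟨a, rfl⟩ := ha
  obtain ⟨b, rfl⟩ := hb
  refine two_of_pair hp h2 (a := a) (b := b) (hρ (by rw [map_pow, h3, map_one]))
    (hρ (by rw [map_pow, h4, map_one])) (fun e => h6 (by rw [e, map_one]; rfl))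
    (hρ (by rw [map_mul, map_mul, h5])) ?_
  rintro ⟨n, rfl⟩
  exact h8 (by rw [map_zpow]; exact Equiv.Perm.zpow_apply_eq_self_of_apply_eq_self h7 n)

open H72 in
theorem two_of_packed {K : Subgroup P24} {a b i k : ℕ} (h : AllIn K [a, b])
    (h1 : powP a 3 = idP ∧ powP b 3 = idP ∧ mulP a b = mulP b a ∧ i < 24 ∧ k < 24 ∧ ap a i ≠ i ∧
      ap a k = k ∧ ap b k ≠ k) : Two K := by
  obtain ⟨va, ha⟩ := h a (by simp)
  obtain ⟨vb, hb⟩ := h b (by simp)
  obtain ⟨h1, h2, h3, hi, hk, h4, h5, h6⟩ := h1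
  refine two_of_perm K.subtype_injective Nat.prime_three (by norm_num) ⟨⟨_, ha⟩, rfl⟩ ⟨⟨_, hb⟩, rfl⟩
    (pow_eq_one_of_powP va h1) (pow_eq_one_of_powP vb h2) ?_ (i := pt i) (k := pt k) ?_ ?_ ?_
  · show toPerm a * toPerm b = toPerm b * toPerm a
    rw [← toPerm_mulP va vb, h3, toPerm_mulP vb va]
  · exact fun e => h4 (pt_inj (ap_lt va hi) hi ((toPerm_pt va hi).symm.trans e))
  · exact (toPerm_pt va hk).trans (by rw [h5])
  · exact fun e => h6 (pt_inj (ap_lt vb hk) hk ((toPerm_pt vb hk).symm.trans e))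

theorem two_M11 : Two Spor.M11 :=
  two_of_packed (a := 235654645543499719526935298849194176) (b := 818651513951218415503646874652651616)
    (i := 1) (k := 7) (H72.M11_eq ▸ H72.allIn_stabM (by decide +kernel)) (by decide +kernel)

theorem two_M22 : Two Spor.M22 :=
  two_of_packed (a := 983991054072617994719118202279475296) (b := 960902026206222450738267914090712384)
    (i := 1) (k := 4) (H72.M22_eq ▸ H72.allIn_stabM (by decide +kernel)) (by decide +kernel)

theorem two_of_le {G : Type*} [Group G] {A B : Subgroup G} (h : A ≤ B) (h2 : Two A) : Two B :=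
  h2.of_injective _ (Subgroup.inclusion_injective h)

theorem two_M12 : Two Spor.M12 := two_of_le inf_le_left two_M11
theorem two_M23 : Two Spor.M23 := two_of_le inf_le_left two_M22
theorem two_M24 : Two M24 := two_of_le inf_le_left two_M23

theorem two_J4 : Two Spor.J4 :=
  have := H80.J4R.nontrivial_J4
  H74.M24P.J4_xy.elim fun e => (two_M24.of_equiv e).of_injective _ (Subgroup.subtype_injective _)

open H71 in
theorem two_of_env {G : Type*} [Group G] [Finite G] {ρ : G →* Equiv.Perm ℕ}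
    (hρ : Function.Injective ρ) {N m : ℕ} {π : ℕ → Equiv.Perm ℕ} {A : ℕ → ℕ → ℕ} (E : Env N π A)
    (hN : N ≤ 2 ^ m) (hπ : ∀ l, π l ∈ ρ.range) {p : ℕ} (hp : (p + 1).Prime) (h2 : p ≠ 1)
    (a b : List ℕ) (i j k l : ℕ)
    (h : isId A m N (pw a (p + 1)) = true ∧ isId A m N (pw b (p + 1)) = true ∧
      isId A m N (a ++ b ++ pw a p ++ pw b p) = true ∧ maps A a i j = true ∧ maps A a k k = true ∧
      maps A b k l = true ∧ j ≠ i ∧ l ≠ k) : Two G := by
  obtain ⟨h3, h4, h5, h6, h7, h8, h9, h10⟩ := h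
  have e3 := E.eq_one_of_isId hN h3
  have e4 := E.eq_one_of_isId hN h4
  have e5 := E.eq_one_of_isId hN h5
  rw [evw_pw] at e3 e4
  rw [evw_append, evw_append, evw_append, evw_pw, evw_pw,
    eq_inv_of_mul_eq_one_left ((pow_succ _ p).symm.trans e3),
    eq_inv_of_mul_eq_one_left ((pow_succ _ p).symm.trans e4)] at e5
  exact two_of_perm hρ hp (by omega) (evw_mem fun l _ => hπ l) (evw_mem fun l _ => hπ l) e3 e4
    (commutatorElement_eq_one_iff_mul_comm.1 e5) (E.of_maps h6 ▸ h9) (E.of_maps h7) (E.of_maps h8 ▸ h10)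

open H71 H81 in
theorem mkPi_mem {N : ℕ} {B : Subgroup (Equiv.Perm ℕ)} {L : List Net} (h : Good N B L) (l : ℕ) :
    mkPi L [] l ∈ B := by
  rw [mkPi_eq]
  refine nth_prop (P := fun r : Net => r.perm ∈ B) ?_ (one_mem _) l
  rw [List.append_nil]
  induction L with
  | nil => exact fun _ h => nomatch h
  | cons r L ih =>
    intro a ha
    rcases List.mem_cons.1 ha with rfl | ha
    · exact (h _ (by simp)).2
    rcases List.mem_cons.1 ha with rfl | ha
    · exact Net.perm_rev r ▸ inv_mem (h _ (by simp)).2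
    · exact ih (fun s hs => h s (by simp [hs])) a ha

theorem two_He : Two Spor.He :=
  two_of_env H71.He.inj H71.HeM.env H71.HeM.hN (fun l => ⟨_, H71.He.hρ l⟩) Nat.prime_three (by norm_num)
    [6, 7, 6, 8] [9, 10, 7, 9, 10] 1 48 0 338 (by decide +kernel)

theorem two_HS : Two Spor.HS :=
  have := Nat.finite_of_card_ne_zero (H79.RepHS.card.trans_ne (by norm_num))
  two_of_env (m := 7) H79.RepHS.inj (H71.env_mk (fun r h => (H79.RepHS.good0 r h).1) (invs := []) (by simp))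
    (by norm_num) (mkPi_mem H79.RepHS.good0) Nat.prime_five (by norm_num)
    [0, 0, 2, 2, 1, 3, 3, 1, 3] [0, 2, 0, 2, 0, 3, 3, 0, 3] 0 19 13 74 (by decide +kernel)

theorem two_Ru : Two Spor.Ru :=
  have := Nat.finite_of_card_ne_zero (H79.Ru.card.trans_ne (by norm_num))
  two_of_env (m := 12) H79.Ru.inj (H71.env_mk (fun r h => (H79.Ru.gL' r h).1) (invs := []) (by simp))
    (by norm_num) (H79.Ru.range_eq ▸ mkPi_mem H79.Ru.gL') Nat.prime_five (by norm_num)
    [4, 4, 7, 4, 4, 7, 4, 7] [4, 7, 4, 4, 7, 4, 4, 7] 1 777 16 1023 (by decide +kernel)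

theorem two_J2 : Two Spor.J2 := by
  have := Nat.finite_of_card_ne_zero (H4.M2.card.trans_ne (by norm_num))
  obtain ⟨ψ, -⟩ := H4.Ico.exists_equiv
  exact (two_of_env (m := 7) RepJ2.inj (H71.env_mk (fun r h => (RepJ2.good r h).1) (invs := []) (by simp))
    (by norm_num) (mkPi_mem RepJ2.good) Nat.prime_three (by norm_num)
    [2, 0, 5, 2] [0, 2, 4, 0, 5] 0 27 10 11 (by decide +kernel)).of_equiv ψ.symm

theorem two_spo {K : Type*} [Group K] (h : Spo K) : Two K := by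
  rcases h with ⟨⟨e⟩⟩ | ⟨⟨e⟩⟩ | ⟨⟨e⟩⟩ | ⟨⟨e⟩⟩ | ⟨⟨e⟩⟩ | ⟨⟨e⟩⟩ | ⟨⟨e⟩⟩ | ⟨⟨e⟩⟩ | ⟨⟨e⟩⟩ | ⟨⟨e⟩⟩
  exacts [two_M11.of_equiv e, two_M12.of_equiv e, two_M22.of_equiv e, two_M23.of_equiv e,
    two_M24.of_equiv e, two_J2.of_equiv e, two_J4.of_equiv e, two_HS.of_equiv e, two_He.of_equiv e,
    two_Ru.of_equiv e]

end H15.QT
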